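import Cfsg.Agent.Chars.Basic
import Cfsg.Agent.Chars.FrobSchur.Count
import Mathlib.GroupTheory.GroupAction.Basic
import Mathlib.GroupTheory.Sylow
import Mathlib.GroupTheory.Nilpotent
import Mathlib.Order.Atoms.Finite

/-!
# 2-groups whose number of involutions is `1` modulo `4`
-/

set_option autoImplicit false

namespace CfsgLib.InvolutionsTwoGroup

open Cfsg CfsgLib.Chars
open scoped ComplexConjugate

variable {G : Type*} [Group G] [Finite G]

/-- The product of an irreducible character with a linear character. -/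
noncomputable def tw (l : G →* ℂˣ) (χ : IrrCharacter G) : IrrCharacter G :=
  ⟨fun g => (l g : ℂ) * (χ : G → ℂ) g, isIrrCharacter_linear_mul χ.2 l⟩

theorem tw_apply (l : G →* ℂˣ) (χ : IrrCharacter G) (g : G) :
    (tw l χ : G → ℂ) g = (l g : ℂ) * (χ : G → ℂ) g := rfl

theorem tw_one (χ : IrrCharacter G) : tw (1 : G →* ℂˣ) χ = χ :=
  Subtype.ext (funext fun g => by simp [tw_apply])

theorem tw_tw (l m : G →* ℂˣ) (χ : IrrCharacter G) : tw l (tw m χ) = tw (l * m) χ :=
  Subtype.ext (funext fun g => by simp [tw_apply, mul_assoc])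

theorem charDegree_tw (l : G →* ℂˣ) (χ : IrrCharacter G) :
    charDegree (tw l χ : G → ℂ) = charDegree (χ : G → ℂ) := by
  simp [charDegree, tw_apply]

/-- The linear characters fixing `χ` number at most `χ 1 ^ 2`. -/
theorem card_le_sq_of_tw_eq [Fintype G] (χ : IrrCharacter G) (T : Finset (G →* ℂˣ))
    (hT : ∀ l ∈ T, tw l χ = χ) : T.card ≤ charDegree (χ : G → ℂ) ^ 2 := by
  classical
  obtain ⟨c, hc, hc'⟩ := exists_nat_coeff
    (isCharacter_mul (isCharacter_coe χ) (isCharacter_conj (isCharacter_coe χ)))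
  have h1 : ∀ l ∈ T, c (linChar l) = 1 := fun l hl => by
    rw [← Nat.cast_inj (R := ℂ), ← hc', Nat.cast_one, ← classInner_self χ, classInner, classInner]
    congr 1
    refine Finset.sum_congr rfl fun g _ => ?_
    have h := congrFun (congrArg Subtype.val (hT l hl)) g
    rw [tw_apply] at h
    conv_rhs => arg 2; rw [← h, map_mul]
    rw [linChar_apply, Pi.mul_apply]
    ring
  have hsum : charDegree (χ : G → ℂ) ^ 2 = ∑ ψ : IrrCharacter G, c ψ * charDegree (ψ : G → ℂ) := by
    have h := congrFun hc 1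
    simp only [Pi.mul_apply, Finset.sum_apply, Pi.smul_apply, smul_eq_mul, ← coe_charDegree,
      map_natCast] at h
    rw [sq, ← Nat.cast_inj (R := ℂ)]
    push_cast
    exact h
  rw [hsum, ← Finset.card_image_of_injective T linChar_injective, Finset.card_eq_sum_ones]
  refine (Finset.sum_le_sum fun ψ hψ => ?_).trans (Finset.sum_le_sum_of_subset (Finset.subset_univ _))
  obtain ⟨l, hl, rfl⟩ := Finset.mem_image.1 hψ
  rw [h1 l hl, charDegree_linChar]

/-- A non-cyclic `2`-group has at least two linear characters of order two. -/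
theorem exists_two_sign_homs (hG : IsPGroup 2 G) (hnc : ¬ IsCyclic G) :
    ∃ a b : G →* ℂˣ, a ≠ 1 ∧ b ≠ 1 ∧ a ≠ b ∧ a * a = 1 ∧ b * b = 1 := by
  classical
  haveI : Fact (Nat.Prime 2) := ⟨Nat.prime_two⟩
  haveI : Group.IsNilpotent G := hG.isNilpotent
  have key : ∀ M : Subgroup G, IsCoatom M →
      ∃ a : G →* ℂˣ, a.ker = M ∧ a * a = 1 := by
    intro M hM
    haveI : M.Normal := Subgroup.NormalizerCondition.normal_of_coatom M
      normalizerCondition_of_isNilpotent hM
    have hidx : M.index = 2 := by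
      obtain ⟨k, hk⟩ := hG.index M
      rcases k with _ | _ | k
      · exact absurd (Subgroup.index_eq_one.1 (by rw [hk, pow_zero])) hM.1
      · rw [hk]; rfl
      · exfalso
        have hd : 2 ∣ Nat.card (G ⧸ M) := by
          rw [← Subgroup.index_eq_card, hk]; exact dvd_pow_self 2 (by omega)
        obtain ⟨x, hx⟩ := exists_prime_orderOf_dvd_card' 2 hd
        set K := (Subgroup.zpowers x).comap (QuotientGroup.mk' M)
        have hMK : M < K := by
          obtain ⟨g, rfl⟩ := QuotientGroup.mk_surjective x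
          refine lt_of_le_of_ne (fun m hm => ?_) fun e => ?_
          · rw [Subgroup.mem_comap, QuotientGroup.mk'_apply, (QuotientGroup.eq_one_iff m).2 hm]
            exact one_mem _
          · have hg : g ∈ K := Subgroup.mem_zpowers _
            rw [← e, ← QuotientGroup.eq_one_iff] at hg
            rw [hg, orderOf_one] at hx
            omega
        have h1 := congrArg Subgroup.index (hM.2 K hMK)
        rw [Subgroup.index_comap_of_surjective _ (QuotientGroup.mk'_surjective M),
          Subgroup.index_top] at h1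
        have h2 := (Subgroup.zpowers x).index_mul_card
        rw [h1, one_mul, Nat.card_zpowers, hx, ← Subgroup.index_eq_card, hk, pow_succ, pow_succ] at h2
        have : 0 < 2 ^ k := pow_pos (by norm_num) k
        omega
    let a : G →* ℂˣ :=
      { toFun := fun g => if g ∈ M then 1 else -1
        map_one' := if_pos M.one_mem
        map_mul' := fun g h => by
          have := Subgroup.mul_mem_iff_of_index_two hidx (a := g) (b := h)
          by_cases hg : g ∈ M <;> by_cases hh : h ∈ M <;> simp_all }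
    refine ⟨a, ?_, ?_⟩
    · ext g
      rw [MonoidHom.mem_ker]
      show (if g ∈ M then (1 : ℂˣ) else -1) = 1 ↔ _
      by_cases hg : g ∈ M
      · simp [hg]
      · simp only [hg, if_false, iff_false]
        intro h
        have h2 := congrArg Units.val h
        rw [Units.val_neg, Units.val_one] at h2
        norm_num at h2
    · refine MonoidHom.ext fun g => ?_
      show (if g ∈ M then (1 : ℂˣ) else -1) * (if g ∈ M then (1 : ℂˣ) else -1) = 1
      by_cases hg : g ∈ M <;> simp [hg]
  have hbot : (⊥ : Subgroup G) ≠ ⊤ := fun h => hnc (by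
    haveI : Subsingleton G := ⟨fun x y => by
      have e : ∀ z : G, z = 1 := fun z => Subgroup.mem_bot.1 (by rw [h]; exact Subgroup.mem_top z)
      rw [e x, e y]⟩
    infer_instance)
  obtain ⟨M, hM, -⟩ := (eq_top_or_exists_le_coatom (⊥ : Subgroup G)).resolve_left hbot
  obtain ⟨g, hg⟩ : ∃ g, g ∉ M := by
    by_contra h; push Not at h; exact hM.1 ((Subgroup.eq_top_iff' M).2 h)
  obtain ⟨M', hM', hgM'⟩ := (eq_top_or_exists_le_coatom (Subgroup.zpowers g)).resolve_left
    (fun h => hnc ⟨g, fun x => Subgroup.mem_zpowers_iff.1 (h ▸ Subgroup.mem_top x)⟩)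
  obtain ⟨a, ha, ha2⟩ := key M hM
  obtain ⟨b, hb, hb2⟩ := key M' hM'
  refine ⟨a, b, fun e => ?_, fun e => ?_, fun e => hg ?_, ha2, hb2⟩
  · rw [e, MonoidHom.ker_one] at ha; exact hM.1 ha.symm
  · rw [e, MonoidHom.ker_one] at hb; exact hM'.1 hb.symm
  · rw [← ha, e, hb]; exact hgM' (Subgroup.mem_zpowers g)

open scoped Classical in
/-- The integral indicator. -/
noncomputable def sgn [Fintype G] (χ : IrrCharacter G) : ℤ :=
  if FrobSchur.indicator (χ : G → ℂ) = 1 then 1
  else if FrobSchur.indicator (χ : G → ℂ) = -1 then -1 else 0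

theorem coe_sgn [Fintype G] (χ : IrrCharacter G) :
    (sgn χ : ℂ) = FrobSchur.indicator (χ : G → ℂ) := by
  rw [sgn]
  rcases FrobSchur.irr_trichotomy χ.2 with h | h | h <;> norm_num [h]

theorem main (hG : IsPGroup 2 G) (ht : Nat.card {x : G // orderOf x = 2} % 4 = 1) :
    IsCyclic G ∨ (commutator G).index = 4 := by
  classical
  haveI : Fact (Nat.Prime 2) := ⟨Nat.prime_two⟩
  haveI : Fintype G := Fintype.ofFinite G
  by_contra hcon
  push Not at hcon
  obtain ⟨hnc, h4⟩ := hcon
  haveI : Finite (G →* ℂˣ) :=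
    Finite.of_injective (linChar (G := G)) linChar_injective
  haveI : Fintype (G →* ℂˣ) := Fintype.ofFinite _
  let L : Subgroup (G →* ℂˣ) :=
    { carrier := {l | l * l = 1}
      one_mem' := one_mul 1
      mul_mem' := fun {a b} (ha : a * a = 1) (hb : b * b = 1) => by
        refine MonoidHom.ext fun g => ?_
        have h1 : a g * a g = 1 := DFunLike.congr_fun ha g
        have h2 : b g * b g = 1 := DFunLike.congr_fun hb g
        show a g * b g * (a g * b g) = 1
        rw [mul_mul_mul_comm, h1, h2, one_mul]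
      inv_mem' := fun {a} (ha : a * a = 1) => by
        refine MonoidHom.ext fun g => ?_
        have h1 : a g * a g = 1 := DFunLike.congr_fun ha g
        show (a g)⁻¹ * (a g)⁻¹ = 1
        rw [← mul_inv, h1, inv_one] }
  have hL2 : IsPGroup 2 L := fun l => ⟨1, Subtype.ext (by
    show (l : G →* ℂˣ) ^ (2 ^ 1) = 1; rw [pow_one, pow_two]; exact l.2)⟩
  -- at least four sign characters
  obtain ⟨k, hk⟩ := IsPGroup.iff_card.1 hL2
  have hk2 : 2 ≤ k := by
    obtain ⟨a, b, ha, hb, hab, ha2, hb2⟩ := exists_two_sign_homs hG hnc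
    by_contra hlt
    have h3 : 3 ≤ Nat.card L := by
      have h : ({(1 : L), ⟨a, ha2⟩, ⟨b, hb2⟩} : Finset L).card = 3 :=
        Finset.card_eq_three.2 ⟨_, _, _, fun e => ha (congrArg Subtype.val e).symm,
          fun e => hb (congrArg Subtype.val e).symm, fun e => hab (congrArg Subtype.val e), rfl⟩
      rw [← h, Nat.card_eq_fintype_card]
      exact Finset.card_le_univ _
    rw [hk] at h3
    have : 2 ^ k ≤ 2 ^ 1 := Nat.pow_le_pow_right (by norm_num) (by omega)
    omega
  have hL4 : 4 ∣ Nat.card L := hk ▸ Dvd.dvd.trans (by norm_num) (pow_dvd_pow 2 hk2)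
  -- real characters of degree two
  set S : Finset (IrrCharacter G) := Finset.univ.filter
    fun χ => charDegree (χ : G → ℂ) = 2 ∧ ∀ g, ((χ : G → ℂ) g).im = 0
  have hdeg : ∀ χ : IrrCharacter G, charDegree (χ : G → ℂ) = 1 ∨ charDegree (χ : G → ℂ) = 2 ∨
      4 ∣ charDegree (χ : G → ℂ) := by
    intro χ
    obtain ⟨m, hm⟩ := IsPGroup.iff_card.1 hG
    obtain ⟨i, -, hi⟩ := (Nat.dvd_prime_pow Nat.prime_two).1 (hm ▸ charDegree_dvd_card χ)
    rcases i with _ | _ | i
    · exact Or.inl hi
    · exact Or.inr (Or.inl hi)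
    · exact Or.inr (Or.inr ⟨2 ^ i, by rw [hi]; ring⟩)
  have hS : S.card % 2 = 1 := by
    have h := FrobSchur.sum_indicator_degree (G := G)
    simp only [← coe_sgn, ← coe_charDegree] at h
    have hz : ∑ χ : IrrCharacter G, sgn χ * (charDegree (χ : G → ℂ) : ℤ) =
        (Nat.card {x : G // orderOf x = 2} : ℤ) + 1 := by exact_mod_cast h
    have h1 : ∀ χ : IrrCharacter G, ((sgn χ * (charDegree (χ : G → ℂ) : ℤ) : ℤ) : ZMod 4) =
        (if (charDegree (χ : G → ℂ) = 1 ∧ ∀ g, ((χ : G → ℂ) g).im = 0) then (1 : ZMod 4) else 0) +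
          (if χ ∈ S then (2 : ZMod 4) else 0) := by
      intro χ
      by_cases hreal : ∀ g, ((χ : G → ℂ) g).im = 0
      · rcases hdeg χ with hd | hd | ⟨c, hd⟩
        · have hs : sgn χ = 1 := if_pos (FrobSchur.irr_eq_one_of_odd χ.2 hreal
            (by rw [← coe_charDegree, hd]) odd_one)
          rw [if_pos ⟨hd, hreal⟩, if_neg (by simp [S, hd]), hs, hd]
          simp
        · rw [if_neg (by simp [hd]), if_pos (by simp [S, hd, hreal]), hd]
          rcases FrobSchur.irr_sq_eq_one_of_real χ.2 hreal with h' | h' <;>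
            (simp only [sgn, h']; norm_num) <;> decide
        · have h0 : ((sgn χ * (charDegree (χ : G → ℂ) : ℤ) : ℤ) : ZMod 4) = 0 := by
            rw [hd]; push_cast; rw [show (4 : ZMod 4) = 0 by decide]; ring
          rw [h0, if_neg (fun e => by omega), if_neg (fun e => by
            simp only [S, Finset.mem_filter] at e; omega), add_zero]
      · have hs : sgn χ = 0 := by
          push Not at hreal
          rw [sgn, (FrobSchur.irr_eq_zero_iff χ.2).2 hreal]
          norm_num
        rw [hs, if_neg (fun e => hreal e.2), if_neg (fun e => hreal (Finset.mem_filter.1 e).2.2)]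
        simp
    have h2 : (Finset.univ.filter fun χ : IrrCharacter G =>
        charDegree (χ : G → ℂ) = 1 ∧ ∀ g, ((χ : G → ℂ) g).im = 0).card = Nat.card L := by
      rw [Nat.card_eq_fintype_card, ← Finset.card_univ]
      symm
      refine Finset.card_bij (fun l _ => linChar (l : G →* ℂˣ)) (fun l _ => ?_) ?_ (fun χ hχ => ?_)
      · refine Finset.mem_filter.2 ⟨Finset.mem_univ _, charDegree_linChar _, fun g => ?_⟩
        have e := congrArg Units.val (DFunLike.congr_fun (l.2 : (l : G →* ℂˣ) * l = 1) g)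
        rw [MonoidHom.mul_apply, Units.val_mul, MonoidHom.one_apply, Units.val_one,
          mul_self_eq_one_iff] at e
        rw [linChar_apply]
        rcases e with e | e <;> rw [e] <;> simp
      · intro a _ b _ e
        exact Subtype.ext (linChar_injective e)
      · obtain ⟨-, hd, hre⟩ := Finset.mem_filter.1 hχ
        obtain ⟨l, rfl⟩ := exists_linChar_eq χ (by rw [← coe_charDegree, hd, Nat.cast_one])
        refine ⟨⟨l, MonoidHom.ext fun g => Units.ext ?_⟩, Finset.mem_univ _, rfl⟩
        rw [MonoidHom.mul_apply, Units.val_mul, MonoidHom.one_apply, Units.val_one]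
        have hr := hre g
        have h := map_inv_eq_conj (isCharacter_coe (linChar l)) g
        simp only [linChar_apply] at h hr
        rw [Complex.conj_eq_iff_im.2 hr, map_inv, Units.val_inv_eq_inv_val] at h
        have hne := Units.ne_zero (l g)
        field_simp at h
        linear_combination -h
    have h3 := congrArg (Int.cast : ℤ → ZMod 4) hz
    rw [Int.cast_sum, Finset.sum_congr rfl (fun χ _ => h1 χ), Finset.sum_add_distrib,
      Finset.sum_boole, h2, Finset.sum_ite_mem, Finset.univ_inter, Finset.sum_const,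
      nsmul_eq_mul] at h3
    rw [(ZMod.natCast_eq_zero_iff _ 4).2 hL4, zero_add] at h3
    have h5 : ((S.card * 2 : ℕ) : ZMod 4) =
        ((Nat.card {x : G // orderOf x = 2} + 1 : ℕ) : ZMod 4) := by push_cast at h3 ⊢; exact h3
    rw [ZMod.natCast_eq_natCast_iff'] at h5
    omega
  -- the sign characters act on them
  have hSmem : ∀ (l : L) (χ : IrrCharacter G), χ ∈ S → tw (l : G →* ℂˣ) χ ∈ S := by
    intro l χ hχ
    obtain ⟨-, hd, hre⟩ := Finset.mem_filter.1 hχ
    refine Finset.mem_filter.2 ⟨Finset.mem_univ _, by rw [charDegree_tw, hd], fun g => ?_⟩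
    have e := congrArg Units.val (DFunLike.congr_fun (l.2 : (l : G →* ℂˣ) * l = 1) g)
    rw [MonoidHom.mul_apply, Units.val_mul, MonoidHom.one_apply, Units.val_one,
      mul_self_eq_one_iff] at e
    rw [tw_apply]
    rcases e with e | e <;> rw [e] <;> simp [hre g]
  letI act : MulAction L S :=
    { smul := fun l χ => ⟨tw (l : G →* ℂˣ) χ.1, hSmem l χ.1 χ.2⟩
      one_smul := fun χ => Subtype.ext (tw_one _)
      mul_smul := fun l m χ => Subtype.ext (tw_tw _ _ _).symm }
  have hmod := hL2.card_modEq_card_fixedPoints S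
  rw [Nat.card_eq_finsetCard, Nat.ModEq, hS] at hmod
  set X : Finset (IrrCharacter G) := S.filter fun χ => ∀ l : L, tw (l : G →* ℂˣ) χ = χ
  have hX : Nat.card (MulAction.fixedPoints L S) = X.card := by
    rw [← Nat.card_eq_finsetCard]
    refine Nat.card_congr ⟨fun x => ⟨x.1.1, Finset.mem_filter.2 ⟨x.1.2, fun l =>
      congrArg Subtype.val (MulAction.mem_fixedPoints.1 x.2 l)⟩⟩,
      fun y => ⟨⟨y.1, (Finset.mem_filter.1 y.2).1⟩, fun l =>
        Subtype.ext ((Finset.mem_filter.1 y.2).2 l)⟩, fun x => rfl, fun y => rfl⟩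
  rw [hX] at hmod
  have hLimg : ∀ χ ∈ X, ∀ T : Finset (G →* ℂˣ), (∀ l ∈ T, tw l χ = χ) → T.card ≤ 4 := by
    intro χ hχ T hT
    have h := card_le_sq_of_tw_eq χ T hT
    rw [(Finset.mem_filter.1 (Finset.mem_filter.1 hχ).1).2.1] at h
    exact h
  obtain ⟨χ₀, hχ₀⟩ : X.Nonempty := Finset.card_pos.1 (by omega)
  have hLcard : Nat.card L = 4 := by
    have h := hLimg χ₀ hχ₀ ((Finset.univ : Finset L).image Subtype.val) (fun l hl => by
      obtain ⟨m, -, rfl⟩ := Finset.mem_image.1 hl
      exact (Finset.mem_filter.1 hχ₀).2 m)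
    rw [Finset.card_image_of_injective _ Subtype.val_injective, Finset.card_univ,
      ← Nat.card_eq_fintype_card] at h
    have := Nat.le_of_dvd Nat.card_pos hL4
    omega
  obtain ⟨lam, hlam, hlam2⟩ : ∃ lam : G →* ℂˣ, lam ∉ L ∧ lam * lam ∈ L := by
    have htop : L ≠ ⊤ := fun e => h4 (by
      rw [← card_monoidHom_units, ← Subgroup.card_top, ← e, hLcard])
    obtain ⟨l, hl⟩ : ∃ l, l ∉ L := by
      by_contra h; push Not at h; exact htop ((Subgroup.eq_top_iff' L).2 h)
    have hex : ∃ j : ℕ, l ^ (2 ^ j) ∈ L := by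
      obtain ⟨m, hm⟩ := IsPGroup.iff_card.1 hG
      refine ⟨m, ?_⟩
      have : l ^ (2 ^ m) = 1 := MonoidHom.ext fun g => by
        rw [MonoidHom.pow_apply, ← map_pow, ← hm, pow_card_eq_one', map_one, MonoidHom.one_apply]
      rw [this]; exact one_mem L
    set j := Nat.find hex with hj
    have hj0 : j ≠ 0 := fun e => hl (by have := Nat.find_spec hex; rw [← hj, e] at this; simpa using this)
    refine ⟨l ^ (2 ^ (j - 1)), Nat.find_min hex (by omega), ?_⟩
    rw [← pow_add, ← two_mul, ← pow_succ', Nat.sub_add_cancel (Nat.pos_of_ne_zero hj0)]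
    exact Nat.find_spec hex
  -- a fixed point free involution of `X`
  have heven : ((X.card : ℕ) : ZMod 2) = 0 := by
    rw [Finset.card_eq_sum_ones, Nat.cast_sum, Nat.cast_one]
    refine Finset.sum_involution (fun χ _ => tw lam χ) (fun _ _ => CharTwo.add_self_eq_zero _) (fun χ hχ _ he => ?_)
      (fun χ hχ => ?_) fun χ hχ => ?_
    · have h := hLimg χ hχ (insert lam ((Finset.univ : Finset L).image Subtype.val)) (fun l hl => by
        rcases Finset.mem_insert.1 hl with rfl | hl
        · exact he
        · obtain ⟨m, -, rfl⟩ := Finset.mem_image.1 hl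
          exact (Finset.mem_filter.1 hχ).2 m)
      rw [Finset.card_insert_of_notMem (fun hm => by
        obtain ⟨m, -, e⟩ := Finset.mem_image.1 hm
        exact hlam (e ▸ m.2)), Finset.card_image_of_injective _ Subtype.val_injective,
        Finset.card_univ, ← Nat.card_eq_fintype_card, hLcard] at h
      omega
    · obtain ⟨hχS, hfix⟩ := Finset.mem_filter.1 hχ
      obtain ⟨-, hd, hre⟩ := Finset.mem_filter.1 hχS
      refine Finset.mem_filter.2 ⟨Finset.mem_filter.2 ⟨Finset.mem_univ _, by rw [charDegree_tw, hd],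
        fun g => ?_⟩, fun l => ?_⟩
      · rw [← Complex.conj_eq_iff_im, tw_apply, map_mul, Complex.conj_eq_iff_im.2 (hre g)]
        have h := congrFun (congrArg Subtype.val (hfix (⟨lam * lam, hlam2⟩⁻¹ : L))) g
        rw [tw_apply, Subgroup.coe_inv, MonoidHom.inv_apply] at h
        have hc := map_inv_eq_conj (isCharacter_coe (linChar lam)) g
        simp only [linChar_apply, map_inv] at hc
        rw [← hc]
        conv_rhs => rw [← h]
        simp only [MonoidHom.mul_apply, Units.val_inv_eq_inv_val, Units.val_mul]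
        field_simp [Units.ne_zero]
      · rw [tw_tw, mul_comm (l : G →* ℂˣ) lam, ← tw_tw, hfix l]
    · rw [tw_tw]
      exact (Finset.mem_filter.1 hχ).2 ⟨lam * lam, hlam2⟩
  rw [ZMod.natCast_eq_zero_iff] at heven
  omega

end CfsgLib.InvolutionsTwoGroup
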